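import Cfsg.Agent.Lib.Solvable.CarterSystem2
import Cfsg.Agent.Lib.SolvStruct.Fit
import Cfsg.Agent.Lib.Core.Basic

/-!
# Carter subgroups in groups of nilpotent length at most two
-/

set_option autoImplicit false

open scoped Pointwise commutatorElement

namespace Cfsg.Agent.Lib.Solvable.CarterLength2

open Cfsg Cfsg.Agent.Lib.Solvable.Basic Cfsg.Agent.Lib.Solvable.Hall
  Cfsg.Agent.Lib.Solvable.HallRel Cfsg.Agent.Lib.Solvable.HallSystem
  Cfsg.Agent.Lib.Solvable.HallSystem2 Cfsg.Agent.Lib.Solvable.Misc1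
  Cfsg.Agent.Lib.Solvable.Carter Cfsg.Agent.Lib.Solvable.HallSystem3
  Cfsg.Agent.Lib.Solvable.CarterSystem Cfsg.Agent.Lib.Solvable.CarterSystem2

variable {G : Type*} [Group G]

/-- A Carter subgroup contained in `L` is a Carter subgroup of `L`. -/
theorem isCarter_subgroupOf {C L : Subgroup G} (hC : IsCarterSubgroup C) (hCL : C ≤ L) :
    IsCarterSubgroup (C.subgroupOf L) := by
  have hnil : Group.IsNilpotent C := hC.1
  refine ⟨Group.nilpotent_of_mulEquiv (Subgroup.subgroupOfEquivOfLe hCL).symm, ?_⟩
  apply le_antisymm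
  · intro y hy
    have h1 : (y : G) ∈ Subgroup.normalizer (C : Set G) := by
      rw [Subgroup.mem_normalizer_iff]
      intro g
      constructor
      · intro hg
        have h2 : (⟨g, hCL hg⟩ : L) ∈ C.subgroupOf L := hg
        exact (Subgroup.mem_normalizer_iff.mp hy _).mp h2
      · intro hg
        have hgL : g ∈ L := by
          have := L.mul_mem (L.mul_mem (L.inv_mem y.2) (hCL hg)) y.2
          simpa [mul_assoc] using this
        have h2 : y * (⟨g, hgL⟩ : L) * y⁻¹ ∈ C.subgroupOf L := hg
        exact (Subgroup.mem_normalizer_iff.mp hy _).mpr h2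
    rw [hC.2] at h1
    exact h1
  · exact Subgroup.le_normalizer

/-- Overgroups of Carter subgroups are self-normalizing. -/
theorem normalizer_eq_of_carter_le [Finite G] [Group.IsSolvable G] {C L : Subgroup G}
    (hC : IsCarterSubgroup C) (hCL : C ≤ L) : Subgroup.normalizer (L : Set G) = L := by
  apply le_antisymm _ Subgroup.le_normalizer
  intro x hx
  have hxL := mem_normalizer_iff_conj.mp hx
  have hxCL : MulAut.conj x • C ≤ L := by
    have := conj_smul_mono (g := x) hCL
    rwa [hxL] at this
  obtain ⟨l, hl⟩ := (exists_carter_and_conj (G := L)).2 _ _ (isCarter_subgroupOf hC hCL)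
    (isCarter_subgroupOf (isCarter_conj hC x) hxCL)
  have h1 : MulAut.conj (l : G) • C ≤ MulAut.conj x • C := by
    intro z hz
    rw [mem_conj_smul_iff] at hz
    have hzL : z ∈ L := by
      have := L.mul_mem (L.mul_mem l.2 (hCL hz)) (L.inv_mem l.2)
      simpa [mul_assoc] using this
    have h2 : (⟨z, hzL⟩ : L) ∈ MulAut.conj l • C.subgroupOf L := by
      rw [mem_conj_smul_iff]
      exact hz
    rw [hl] at h2
    exact h2
  have h2 : MulAut.conj (l : G) • C = MulAut.conj x • C :=
    Subgroup.eq_of_le_of_card_ge h1 (by rw [card_conj_smul, card_conj_smul])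
  have h3 : (l : G)⁻¹ * x ∈ Subgroup.normalizer (C : Set G) := by
    rw [mem_normalizer_iff_conj, ← conj_smul_conj_smul, ← h2, conj_smul_conj_smul, inv_mul_cancel,
      map_one, one_smul]
  rw [hC.2] at h3
  have h4 : x = (l : G) * ((l : G)⁻¹ * x) := by group
  rw [h4]
  exact L.mul_mem l.2 (hCL h3)

/-- The image of a Carter subgroup in any quotient is a Carter subgroup. -/
theorem isCarter_map_of_normal [Finite G] [Group.IsSolvable G] {C N : Subgroup G} [hNn : N.Normal]
    (hC : IsCarterSubgroup C) : IsCarterSubgroup (C.map (QuotientGroup.mk' N)) := by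
  have hnil : Group.IsNilpotent C := hC.1
  let f := QuotientGroup.mk' N
  have hf : Function.Surjective f := QuotientGroup.mk'_surjective N
  refine ⟨Group.nilpotent_of_surjective (f.subgroupMap C) (f.subgroupMap_surjective C), ?_⟩
  apply le_antisymm _ Subgroup.le_normalizer
  intro xb hxb
  obtain ⟨x, rfl⟩ := hf xb
  have h1 : (C.map f).comap f = C ⊔ N := by
    rw [Subgroup.comap_map_eq, QuotientGroup.ker_mk']
  have h2 : x ∈ Subgroup.normalizer ((C ⊔ N : Subgroup G) : Set G) := by
    rw [Subgroup.mem_normalizer_iff]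
    intro y
    rw [← h1]
    have h3 := Subgroup.mem_normalizer_iff.mp hxb (f y)
    simp only [Subgroup.mem_comap, map_mul, map_inv]
    exact h3
  rw [normalizer_eq_of_carter_le hC le_sup_left, ← h1] at h2
  exact h2

/-- If `G / T` is nilpotent, then `C T = G` for each Carter subgroup `C`. -/
theorem carter_sup_eq_top [Finite G] [Group.IsSolvable G] {C T : Subgroup G} [hTn : T.Normal]
    (hC : IsCarterSubgroup C) (hT : Group.IsNilpotent (G ⧸ T)) : C ⊔ T = ⊤ := by
  have h1 := isCarter_map_of_normal (N := T) hC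
  have h2 : C.map (QuotientGroup.mk' T) = ⊤ := by
    by_contra hne
    have h3 := Group.normalizerCondition_of_isNilpotent (G := G ⧸ T) _ (lt_top_iff_ne_top.mpr hne)
    rw [h1.2] at h3
    exact lt_irrefl _ h3
  have h3 := Subgroup.comap_map_eq (QuotientGroup.mk' T) C
  rw [h2, QuotientGroup.ker_mk', Subgroup.comap_top] at h3
  exact h3.symm

/-- A non-central minimal normal subgroup avoids the Carter subgroups, in a group of nilpotent
length at most two. -/
theorem inf_carter_eq_bot [Finite G] [Group.IsSolvable G] {F : Subgroup G} [hFn : F.Normal]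
    (hF : Group.IsNilpotent F) (hGF : Group.IsNilpotent (G ⧸ F)) {C N : Subgroup G}
    (hC : IsCarterSubgroup C) (hN : IsMinNormal N) (hnc : ¬ N ≤ Subgroup.center G) :
    N ⊓ C = ⊥ := by
  classical
  have hNn := hN.1
  have hcomm := isMinNormal_comm hN
  set T := fittingSubgroup G with hT
  have hTn : T.Normal := Cfsg.Agent.Lib.Core.Basic.fittingSubgroup_normal'
  have hTnil : Group.IsNilpotent T := Cfsg.Agent.Lib.Core.Basic.fittingSubgroup_isNilpotent
  have hFT : F ≤ T := Cfsg.Agent.Lib.Core.Basic.le_fittingSubgroup hFn hF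
  have hGT : Group.IsNilpotent (G ⧸ T) := by
    apply Group.nilpotent_of_surjective (QuotientGroup.map F T (MonoidHom.id G) hFT)
    intro x
    obtain ⟨y, rfl⟩ := QuotientGroup.mk'_surjective T x
    exact ⟨QuotientGroup.mk' F y, rfl⟩
  have hNcomm : IsMulCommutative N := ⟨⟨fun a b => Subtype.ext (hcomm a a.2 b b.2)⟩⟩
  have hNnil : Group.IsNilpotent N := Cfsg.Agent.Lib.Core.Basic.isNilpotent_of_isMulCommutative
  have hNT : N ≤ T := Cfsg.Agent.Lib.Core.Basic.le_fittingSubgroup hNn hNnil
  have hNcT : N ≤ Subgroup.centralizer (T : Set G) := by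
    have hZn : (N ⊓ Subgroup.centralizer (T : Set G)).Normal := inferInstance
    rcases hN.2.2 _ hZn inf_le_left with h | h
    · exfalso
      have hN₁ne : N.subgroupOf T ≠ ⊥ := by
        intro h1
        apply hN.2.1
        rw [eq_bot_iff]
        intro x hx
        have h2 : (⟨x, hNT hx⟩ : T) ∈ N.subgroupOf T := hx
        rw [h1] at h2
        exact congrArg Subtype.val h2
      have h1 := Cfsg.Agent.Lib.SolvStruct.Fit.inf_center_ne_bot (N.subgroupOf T) hN₁ne
      apply h1
      rw [eq_bot_iff]
      rintro ⟨x, hxT⟩ ⟨hx1, hx2⟩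
      have h2 : x ∈ N ⊓ Subgroup.centralizer (T : Set G) := by
        refine ⟨hx1, ?_⟩
        show x ∈ Subgroup.centralizer (T : Set G)
        rw [Subgroup.mem_centralizer_iff]
        intro y hy
        exact congrArg Subtype.val (Subgroup.mem_center_iff.mp hx2 ⟨y, hy⟩)
      rw [h] at h2
      exact Subtype.ext h2
    · exact inf_eq_left.mp h
  have hsup : C ⊔ T = ⊤ := carter_sup_eq_top hC hGT
  have hgdec : ∀ g : G, ∃ c ∈ C, ∃ t ∈ T, g = c * t := by
    intro g
    have hg : g ∈ C ⊔ T := by
      rw [hsup]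
      trivial
    rw [← SetLike.mem_coe, Subgroup.mul_normal] at hg
    obtain ⟨c, hc, t, ht, h⟩ := Set.mem_mul.mp hg
    exact ⟨c, hc, t, ht, h.symm⟩
  have hconjN : ∀ x ∈ N, ∀ c t : G, t ∈ T → (c * t) * x * (c * t)⁻¹ = c * x * c⁻¹ := by
    intro x hx c t ht
    have h1 := (Subgroup.mem_centralizer_iff.mp (hNcT hx)) t ht
    calc (c * t) * x * (c * t)⁻¹ = c * (t * x) * t⁻¹ * c⁻¹ := by group
      _ = c * (x * t) * t⁻¹ * c⁻¹ := by rw [h1]
      _ = c * x * c⁻¹ := by group
  have hXn : (N ⊓ C).Normal := by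
    constructor
    intro x hx g
    obtain ⟨c, hc, t, ht, rfl⟩ := hgdec g
    refine ⟨hNn.conj_mem x hx.1 _, ?_⟩
    rw [hconjN x hx.1 c t ht]
    exact C.mul_mem (C.mul_mem hc hx.2) (C.inv_mem hc)
  rcases hN.2.2 _ hXn inf_le_left with h | h
  · exact h
  exfalso
  have hNC : N ≤ C := inf_eq_left.mp h
  have hCnil : Group.IsNilpotent C := hC.1
  have hN₁ne : N.subgroupOf C ≠ ⊥ := by
    intro h1
    apply hN.2.1
    rw [eq_bot_iff]
    intro x hx
    have h2 : (⟨x, hNC hx⟩ : C) ∈ N.subgroupOf C := hx
    rw [h1] at h2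
    exact congrArg Subtype.val h2
  have h1 := Cfsg.Agent.Lib.SolvStruct.Fit.inf_center_ne_bot (N.subgroupOf C) hN₁ne
  have hY : N ⊓ Subgroup.centralizer (C : Set G) ≤ Subgroup.center G := by
    intro y hy
    rw [Subgroup.mem_center_iff]
    intro g
    obtain ⟨c, hc, t, ht, rfl⟩ := hgdec g
    have h2 := hconjN y hy.1 c t ht
    have h3 := (Subgroup.mem_centralizer_iff.mp hy.2) c hc
    have h4 : c * y * c⁻¹ = y := by
      rw [h3]
      group
    rw [h4] at h2
    calc c * t * y = (c * t) * y * (c * t)⁻¹ * (c * t) := by group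
      _ = y * (c * t) := by rw [h2]
  have hYn : (N ⊓ Subgroup.centralizer (C : Set G)).Normal := by
    constructor
    intro y hy g
    have h2 := Subgroup.mem_center_iff.mp (hY hy) g
    have h3 : g * y * g⁻¹ = y := by
      rw [h2]
      group
    rw [h3]
    exact hy
  rcases hN.2.2 _ hYn inf_le_left with h2 | h2
  · apply h1
    rw [eq_bot_iff]
    rintro ⟨x, hxC⟩ ⟨hx1, hx2⟩
    have h3 : x ∈ N ⊓ Subgroup.centralizer (C : Set G) := by
      refine ⟨hx1, ?_⟩
      show x ∈ Subgroup.centralizer (C : Set G)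
      rw [Subgroup.mem_centralizer_iff]
      intro y hy
      exact congrArg Subtype.val (Subgroup.mem_center_iff.mp hx2 ⟨y, hy⟩)
    rw [h2] at h3
    exact Subtype.ext h3
  · apply hnc
    rw [← h2]
    exact hY

/-- In a group of nilpotent length at most two, a Carter subgroup containing a system normalizer
equals it. -/
theorem carter_eq_systemNormalizer {G : Type*} [Group G] [Finite G] [Group.IsSolvable G]
    {F : Subgroup G} [hFn : F.Normal] (hF : Group.IsNilpotent F) (hGF : Group.IsNilpotent (G ⧸ F))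
    {K : Nat.Primes → Subgroup G} (hK : IsComplementSystem K) {C : Subgroup G}
    (hC : IsCarterSubgroup C) (hD : systemNormalizer K ≤ C) : C = systemNormalizer K := by
  classical
  induction hc : Nat.card G using Nat.strong_induction_on generalizing G with
  | _ c ih =>
  subst hc
  rcases subsingleton_or_nontrivial G with hsub | hnt
  · exact Subsingleton.elim _ _
  obtain ⟨N, p, hp, hN, hcomm, hexp⟩ := exists_normal_elemAbelian (G := G)
  have hNn := hN.1
  have hPN : IsPGroup p N := isPGroup_of_pow_eq_one hexp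
  have : Fact p.Prime := ⟨hp⟩
  have hlt : Nat.card (G ⧸ N) < Nat.card G := by
    have h1 := Subgroup.card_eq_card_quotient_mul_card_subgroup N
    have h2 : 1 < Nat.card N := by
      rw [Subgroup.one_lt_card_iff_ne_bot]
      exact hN.2.1
    rw [h1]
    have h3 : 0 < Nat.card (G ⧸ N) := Nat.card_pos
    nlinarith
  let f := QuotientGroup.mk' N
  have hf : Function.Surjective f := QuotientGroup.mk'_surjective N
  have hFbn : (F.map f).Normal := Subgroup.Normal.map hFn f hf
  have hFb : Group.IsNilpotent (F.map f) :=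
    Group.nilpotent_of_surjective (f.subgroupMap F) (f.subgroupMap_surjective F)
  have hGFb : Group.IsNilpotent ((G ⧸ N) ⧸ F.map f) := by
    apply Group.nilpotent_of_surjective (QuotientGroup.map F (F.map f) f (Subgroup.le_comap_map f F))
    intro x
    obtain ⟨y, rfl⟩ := QuotientGroup.mk'_surjective (F.map f) x
    obtain ⟨z, rfl⟩ := hf y
    exact ⟨QuotientGroup.mk' F z, rfl⟩
  have h1 := ih _ hlt hFb hGFb (map_isComplementSystem hK N) (isCarter_map_mk hPN hC)
    (by
      rw [systemNormalizer_map hK N]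
      exact Subgroup.map_mono hD) rfl
  rw [systemNormalizer_map hK N] at h1
  have h2 : C ⊔ N = systemNormalizer K ⊔ N := by
    have h3 := Subgroup.comap_map_eq f C
    have h4 := Subgroup.comap_map_eq f (systemNormalizer K)
    rw [QuotientGroup.ker_mk'] at h3 h4
    rw [← h3, ← h4]
    exact congrArg _ h1
  by_cases hcen : N ≤ Subgroup.center G
  · have h3 := hcen.trans (center_le_systemNormalizer K)
    rwa [sup_eq_left.mpr h3, sup_eq_left.mpr (h3.trans hD)] at h2
  · have h3 := isMinNormal_inf_systemNormalizer hK hN hcen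
    have h4 := inf_carter_eq_bot hF hGF hC hN hcen
    rw [inf_comm] at h3 h4
    have h5 := card_sup_mul_card_inf C N
    have h6 := card_sup_mul_card_inf (systemNormalizer K) N
    rw [h2, h4, Subgroup.card_bot, mul_one] at h5
    rw [h3, Subgroup.card_bot, mul_one] at h6
    have h7 : Nat.card C = Nat.card (systemNormalizer K) :=
      Nat.eq_of_mul_eq_mul_right Nat.card_pos (h5.symm.trans h6)
    exact (Subgroup.eq_of_le_of_card_ge hD h7.le).symm

end Cfsg.Agent.Lib.Solvable.CarterLength2
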