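import Cfsg.Agent.Lib.Solvable.Gaschutz
import Mathlib.RingTheory.Coprime.Lemmas

/-!
# Gaschütz: complement from Sylow preimages
-/

set_option autoImplicit false

open scoped Pointwise

namespace Cfsg.Agent.Lib.Solvable.Gaschutz2

open Cfsg.Agent.Lib.Solvable.Gaschutz

variable {G : Type*} [Group G] (K : Subgroup G) [hKn : K.Normal] [hKc : IsMulCommutative K]

open scoped IsMulCommutative

attribute [local instance] conjAct

theorem hasCrossedPow_zero : HasCrossedPow K 0 := by
  refine ⟨fun _ => 1, ?_, ?_⟩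
  · intro g h
    simp
  · intro k
    simp

theorem hasCrossedPow_sum {ι : Type*} (t : Finset ι) (e μ : ι → ℤ)
    (h : ∀ i ∈ t, HasCrossedPow K (e i)) : HasCrossedPow K (∑ i ∈ t, μ i * e i) := by
  classical
  induction t using Finset.induction_on with
  | empty => simpa using hasCrossedPow_zero K
  | insert a s ha ih =>
    rw [Finset.sum_insert ha]
    apply hasCrossedPow_mul
    · rw [mul_comm]
      exact hasCrossedPow_zmul K _ (h a (Finset.mem_insert_self _ _))
    · exact ih (fun i hi => h i (Finset.mem_insert_of_mem hi))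

theorem hasCrossedPow_of_sylows [Finite G] (hn : K.index ≠ 1)
    (h : ∀ p : ℕ, p.Prime → p ∣ K.index → ∃ (S : Sylow p (G ⧸ K)) (L : Subgroup G),
      L ⊓ K = ⊥ ∧ L ⊔ K = (S : Subgroup (G ⧸ K)).comap (QuotientGroup.mk' K)) :
    HasCrossedPow K 1 := by
  classical
  set n := K.index with hndef
  have hn0 : n ≠ 0 := Subgroup.index_ne_zero_of_finite
  set t := n.primeFactors with ht
  have htne : t.Nonempty := Nat.nonempty_primeFactors.mpr (by omega)
  let s : ℕ → ℤ := fun j => ((j ^ n.factorization j : ℕ) : ℤ)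
  have hcop : Pairwise (Function.onFun IsCoprime fun i : t => s i) := by
    rintro ⟨i, hi⟩ ⟨j, hj⟩ hij
    have hij' : i ≠ j := fun h => hij (Subtype.ext h)
    show IsCoprime (s i) (s j)
    apply Nat.isCoprime_iff_coprime.mpr
    apply Nat.Coprime.pow
    exact (Nat.coprime_primes (Nat.prime_of_mem_primeFactors hi)
      (Nat.prime_of_mem_primeFactors hj)).mpr hij'
  obtain ⟨μ, hμ⟩ := (exists_sum_eq_one_iff_pairwise_coprime (s := s) htne).mpr hcop
  rw [← hμ]
  apply hasCrossedPow_sum
  intro i hi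
  have hip := Nat.prime_of_mem_primeFactors hi
  have : Fact i.Prime := ⟨hip⟩
  obtain ⟨S, L, hL1, hL2⟩ := h i hip (Nat.dvd_of_mem_primeFactors hi)
  set U := (S : Subgroup (G ⧸ K)).comap (QuotientGroup.mk' K) with hU
  have hKU : K ≤ U := by
    rw [← hL2]
    exact le_sup_right
  have hidx : U.index = (S : Subgroup (G ⧸ K)).index :=
    Subgroup.index_comap_of_surjective _ (QuotientGroup.mk'_surjective K)
  have hcardQ : Nat.card (G ⧸ K) = n := rfl
  have h3 := Subgroup.card_mul_index (S : Subgroup (G ⧸ K))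
  rw [S.card_eq_multiplicity, hcardQ] at h3
  have h4 : n = i ^ n.factorization i * ∏ j ∈ t \ {i}, j ^ n.factorization j := by
    have h5 := Nat.prod_factorization_pow_eq_self hn0
    rw [Finsupp.prod, Nat.support_factorization] at h5
    rw [Finset.sdiff_singleton_eq_erase,
      Finset.mul_prod_erase _ (fun j => j ^ n.factorization j) hi]
    exact h5.symm
  have h5 : U.index = ∏ j ∈ t \ {i}, j ^ n.factorization j := by
    rw [hidx]
    apply Nat.eq_of_mul_eq_mul_left (pow_pos hip.pos (n.factorization i))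
    rw [h3]
    exact h4
  have hprod : ∏ j ∈ t \ {i}, s j = (U.index : ℤ) := by
    rw [h5]
    push_cast
    rfl
  rw [hprod]
  apply hasCrossedPow_index K hKU hL1
  intro u hu
  rw [← hL2, sup_comm, ← SetLike.mem_coe, Subgroup.normal_mul] at hu
  obtain ⟨k, hk, a, ha, rfl⟩ := Set.mem_mul.mp hu
  exact ⟨⟨k, hk⟩, a, ha, rfl⟩

end Cfsg.Agent.Lib.Solvable.Gaschutz2
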