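import Cfsg.Agent.Lib.Solvable.Wielandt
import Cfsg.Agent.Lib.SolvStruct.Super3

/-!
# Supersolvable Hall subgroups are conjugate
-/

set_option autoImplicit false

open scoped Pointwise commutatorElement

namespace Cfsg.Agent.Lib.Solvable.SuperHall

open Cfsg Cfsg.Agent.Lib.Solvable.Basic Cfsg.Agent.Lib.Solvable.Hall
  Cfsg.Agent.Lib.Solvable.HallRel Cfsg.Agent.Lib.Solvable.Wielandt
  Cfsg.Agent.Lib.SolvStruct.Super

/-- A finite supersolvable group has a normal Sylow subgroup for the largest prime. -/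
theorem exists_normal_sylow_largest {X : Type*} [Group X] [Finite X] (hX : IsSupersolvable X)
    (p : ℕ) (hp : p.Prime) (hmax : ∀ q : ℕ, q.Prime → q ∣ Nat.card X → q ≤ p) :
    ∃ P : Subgroup X, P.Normal ∧ IsPGroup p P ∧ ¬ p ∣ P.index := by
  have : Fact p.Prime := ⟨hp⟩
  induction hc : Nat.card X using Nat.strong_induction_on generalizing X with
  | _ c ih =>
  subst hc
  by_cases hpX : p ∣ Nat.card X
  · obtain ⟨N, hN, hNc⟩ :=
      Cfsg.Agent.Lib.SolvStruct.Super3.exists_normal_card_eq_largest hX p hp hpX hmax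
    have hlt : Nat.card (X ⧸ N) < Nat.card X := by
      have h1 := Subgroup.card_eq_card_quotient_mul_card_subgroup N
      rw [h1, hNc]
      have h3 : 0 < Nat.card (X ⧸ N) := Nat.card_pos
      have := hp.two_le
      nlinarith
    have hdvd : Nat.card (X ⧸ N) ∣ Nat.card X := by
      rw [Subgroup.card_eq_card_quotient_mul_card_subgroup N]
      exact Dvd.intro _ rfl
    obtain ⟨P, hPn, hPp, hPi⟩ := ih _ hlt
      (isSupersolvable_of_surjective (QuotientGroup.mk' N) (QuotientGroup.mk'_surjective N) hX)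
      (fun q hq hqd => hmax q hq (hqd.trans hdvd)) rfl
    refine ⟨P.comap (QuotientGroup.mk' N), inferInstance, ?_, ?_⟩
    · apply hPp.comap_of_ker_isPGroup
      rw [QuotientGroup.ker_mk']
      exact IsPGroup.of_card (n := 1) (by rw [hNc, pow_one])
    · rw [Subgroup.index_comap_of_surjective _ (QuotientGroup.mk'_surjective N)]
      exact hPi
  · refine ⟨⊥, inferInstance, IsPGroup.of_bot, ?_⟩
    rw [Subgroup.index_bot]
    exact hpX

/-- A normal Sylow subgroup of a subgroup `H` with index prime to `p` is Sylow in the group. -/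
theorem aux_sylow {G : Type*} [Group G] [Finite G] {p : ℕ} [Fact p.Prime] {H : Subgroup G}
    {P₀ : Subgroup H} (hn : P₀.Normal) (hp : IsPGroup p P₀) (hi : ¬ p ∣ P₀.index)
    (hi2 : ¬ p ∣ H.index) :
    P₀.map H.subtype ≤ H ∧ IsPGroup p (P₀.map H.subtype : Subgroup G) ∧
      ¬ p ∣ (P₀.map H.subtype).index ∧ H ≤ Subgroup.normalizer ((P₀.map H.subtype : Subgroup G) : Set G) := by
  have hPH : P₀.map H.subtype ≤ H := by
    rintro _ ⟨x, -, rfl⟩
    exact x.2
  refine ⟨hPH, hp.map _, ?_, ?_⟩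
  · have h3 : (P₀.map H.subtype).relIndex H = P₀.index := by
      unfold Subgroup.relIndex
      rw [show (P₀.map H.subtype).subgroupOf H = P₀ from
        Subgroup.comap_map_eq_self_of_injective H.subtype_injective _]
    rw [← Subgroup.relIndex_mul_index hPH, h3]
    intro h
    rcases (Nat.Prime.dvd_mul Fact.out).mp h with h | h
    · exact hi h
    · exact hi2 h
  · intro h hh
    rw [Subgroup.mem_normalizer_iff]
    intro y
    constructor
    · rintro ⟨z, hz, rfl⟩
      exact ⟨(⟨h, hh⟩ : H) * z * (⟨h, hh⟩ : H)⁻¹, hn.conj_mem z hz _, rfl⟩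
    · rintro ⟨z, hz, hzy⟩
      refine ⟨(⟨h, hh⟩ : H)⁻¹ * z * (⟨h, hh⟩ : H), ?_, ?_⟩
      · have := hn.conj_mem z hz (⟨h, hh⟩ : H)⁻¹
        simpa using this
      · simp only [Subgroup.subtype_apply, Subgroup.coe_mul, Subgroup.coe_inv] at hzy ⊢
        rw [hzy]
        group

/-- **Supersolvable Hall subgroups are conjugate.** -/
theorem conj_of_supersolvable_hall {G : Type*} [Group G] [Finite G] (H K : Subgroup G)
    (hH : IsSupersolvable H) (hK : IsSupersolvable K) (hcard : Nat.card H = Nat.card K)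
    (hHall : (Nat.card H).Coprime H.index) : ∃ x : G, MulAut.conj x • H = K := by
  classical
  induction hc : Nat.card G using Nat.strong_induction_on generalizing G with
  | _ c ih =>
  subst hc
  by_cases h1 : Nat.card H = 1
  · have hH1 : H = ⊥ := Subgroup.eq_bot_of_card_eq H h1
    have hK1 : K = ⊥ := Subgroup.eq_bot_of_card_eq K (hcard ▸ h1)
    refine ⟨1, ?_⟩
    rw [hH1, hK1, map_one, one_smul]
  obtain ⟨p, hpmem, hpmax⟩ := Finset.exists_max_image (Nat.card H).primeFactors id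
    (Nat.nonempty_primeFactors.mpr (by
      have : 0 < Nat.card H := Nat.card_pos
      omega))
  have hp : p.Prime := Nat.prime_of_mem_primeFactors hpmem
  have hpH : p ∣ Nat.card H := Nat.dvd_of_mem_primeFactors hpmem
  have : Fact p.Prime := ⟨hp⟩
  have hmaxH : ∀ q : ℕ, q.Prime → q ∣ Nat.card H → q ≤ p := by
    intro q hq hqd
    exact hpmax q (Nat.mem_primeFactors.mpr ⟨hq, hqd, Nat.card_pos.ne'⟩)
  obtain ⟨P₀, hP₀n, hP₀p, hP₀i⟩ := exists_normal_sylow_largest hH p hp hmaxH
  obtain ⟨Q₀, hQ₀n, hQ₀p, hQ₀i⟩ := exists_normal_sylow_largest hK p hp (hcard ▸ hmaxH)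
  have hindex : K.index = H.index := by
    have h2 := Subgroup.card_mul_index H
    have h3 := Subgroup.card_mul_index K
    rw [← hcard] at h3
    exact Nat.eq_of_mul_eq_mul_left Nat.card_pos (h3.trans h2.symm)
  have hpi : ¬ p ∣ H.index := fun h => hp.one_lt.ne' (Nat.eq_one_of_dvd_coprimes hHall hpH h)
  obtain ⟨hPH, hPp, hPi, hPn⟩ := aux_sylow hP₀n hP₀p hP₀i hpi
  obtain ⟨hQK, hQp, hQi, hQn⟩ := aux_sylow hQ₀n hQ₀p hQ₀i (hindex ▸ hpi)
  set P := P₀.map H.subtype with hP
  set Q := Q₀.map K.subtype with hQ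
  obtain ⟨x, -, hx⟩ := exists_conj_le_of_sylow (W := ⊤) le_top le_top hQp hPp hQi
  obtain ⟨y, -, hy⟩ := exists_conj_le_of_sylow (W := ⊤) le_top le_top hPp hQp hPi
  have hPQ : MulAut.conj x • P = Q := by
    apply Subgroup.eq_of_le_of_card_ge hx
    have := Subgroup.card_le_of_le hy
    rwa [card_conj_smul] at this ⊢
  set H' := MulAut.conj x • H with hH'
  have hQH' : Q ≤ H' := by
    rw [← hPQ]
    exact conj_smul_mono hPH
  have hH'n : H' ≤ Subgroup.normalizer (Q : Set G) := by
    intro z hz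
    rw [mem_normalizer_iff_conj, ← hPQ, conj_smul_conj_smul]
    rw [mem_conj_smul_iff] at hz
    have h2 : z * x = x * (x⁻¹ * z * x) := by group
    rw [h2, ← conj_smul_conj_smul, mem_normalizer_iff_conj.mp (hPn hz)]
  set M := Subgroup.normalizer (Q : Set G) with hM
  have hQM : Q ≤ M := Subgroup.le_normalizer
  set Q₁ := Q.subgroupOf M with hQ₁
  have hQ₁n : Q₁.Normal := by
    constructor
    intro y hy m
    exact (Subgroup.mem_normalizer_iff.mp m.2 y).mp hy
  let f := QuotientGroup.mk' Q₁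
  have hf : Function.Surjective f := QuotientGroup.mk'_surjective Q₁
  have hH'c : Nat.card H' = Nat.card H := card_conj_smul x H
  set H₁ := H'.subgroupOf M with hH₁
  set K₁ := K.subgroupOf M with hK₁
  have hH₁c : Nat.card H₁ = Nat.card H' := card_subgroupOf_of_le hH'n
  have hK₁c : Nat.card K₁ = Nat.card K := card_subgroupOf_of_le hQn
  have hQ₁H : Q₁ ≤ H₁ := fun z hz => hQH' hz
  have hQ₁K : Q₁ ≤ K₁ := fun z hz => hQK hz
  have hcardmap : ∀ X₁ : Subgroup M, Q₁ ≤ X₁ → Nat.card (X₁.map f) * Nat.card Q₁ = Nat.card X₁ := by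
    intro X₁ hX₁
    rw [← card_comap_mk' Q₁ (X₁.map f)]
    congr 2
    rw [Subgroup.comap_map_eq, QuotientGroup.ker_mk', sup_eq_left.mpr hX₁]
  have hQ₁c : Nat.card Q₁ = Nat.card Q := card_subgroupOf_of_le hQM
  have hQne : 1 < Nat.card Q := by
    have h2 : Nat.card Q = Nat.card Q₀ := Subgroup.card_map_of_injective K.subtype_injective
    rw [h2, Subgroup.one_lt_card_iff_ne_bot]
    rintro rfl
    rw [Subgroup.index_bot, ← hcard] at hQ₀i
    exact hQ₀i hpH
  have hlt : Nat.card (M ⧸ Q₁) < Nat.card G := by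
    have h2 := Subgroup.card_eq_card_quotient_mul_card_subgroup Q₁
    have h3 : Nat.card M ≤ Nat.card G := Subgroup.card_le_card_group M
    have h4 : 0 < Nat.card (M ⧸ Q₁) := Nat.card_pos
    rw [hQ₁c] at h2
    nlinarith
  have hH₂s : IsSupersolvable (H₁.map f) := by
    apply isSupersolvable_of_surjective (f.subgroupMap H₁) (f.subgroupMap_surjective H₁)
    exact isSupersolvable_of_mulEquiv
      (((MulAut.conj x).subgroupMap H).trans (Subgroup.subgroupOfEquivOfLe hH'n).symm) hH
  have hK₂s : IsSupersolvable (K₁.map f) := by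
    apply isSupersolvable_of_surjective (f.subgroupMap K₁) (f.subgroupMap_surjective K₁)
    exact isSupersolvable_of_mulEquiv (Subgroup.subgroupOfEquivOfLe hQn).symm hK
  have hcard₂ : Nat.card (H₁.map f) = Nat.card (K₁.map f) := by
    have h2 := hcardmap H₁ hQ₁H
    have h3 := hcardmap K₁ hQ₁K
    rw [hH₁c, hH'c] at h2
    rw [hK₁c, ← hcard, ← h2] at h3
    exact (Nat.eq_of_mul_eq_mul_right Nat.card_pos h3).symm
  have hHall₂ : (Nat.card (H₁.map f)).Coprime (H₁.map f).index := by
    have h2 : Nat.card (H₁.map f) ∣ Nat.card H := by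
      rw [← hH'c, ← hH₁c, ← hcardmap H₁ hQ₁H]
      exact Dvd.intro _ rfl
    have h3 : (H₁.map f).index ∣ H.index := by
      rw [Subgroup.index_map_eq _ hf (by rw [QuotientGroup.ker_mk']; exact hQ₁H)]
      have h4 := Subgroup.relIndex_mul_index hH'n
      rw [index_conj_smul] at h4
      rw [← h4]
      exact Dvd.intro _ rfl
    exact Nat.Coprime.coprime_dvd_left h2 (Nat.Coprime.coprime_dvd_right h3 hHall)
  obtain ⟨my, hmy⟩ := ih _ hlt (H₁.map f) (K₁.map f) hH₂s hK₂s hcard₂ hHall₂ rfl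
  obtain ⟨m, rfl⟩ := hf my
  have hKle : K₁ ≤ MulAut.conj m • H₁ := by
    intro z hz
    have h2 : f z ∈ MulAut.conj (f m) • H₁.map f := by
      rw [hmy]
      exact Subgroup.mem_map_of_mem f hz
    rw [← map_conj_smul] at h2
    obtain ⟨w, hw, hwz⟩ := h2
    have h3 : w⁻¹ * z ∈ Q₁ := QuotientGroup.eq.mp hwz
    have h4 : Q₁ ≤ MulAut.conj m • H₁ := by
      intro q hq
      rw [mem_conj_smul_iff]
      apply hQ₁H
      have := hQ₁n.conj_mem q hq m⁻¹
      simpa using this
    have h5 : z = w * (w⁻¹ * z) := by group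
    rw [h5]
    exact Subgroup.mul_mem _ hw (h4 h3)
  have hfinal : K ≤ MulAut.conj (m : G) • H' := by
    intro z hz
    have h2 : (⟨z, hQn hz⟩ : M) ∈ K₁ := hz
    have h3 := hKle h2
    rw [mem_conj_smul_iff] at h3 ⊢
    exact h3
  refine ⟨m * x, ?_⟩
  rw [← conj_smul_conj_smul]
  refine (Subgroup.eq_of_le_of_card_ge hfinal ?_).symm
  rw [card_conj_smul, hH'c, hcard]


end Cfsg.Agent.Lib.Solvable.SuperHall
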